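import Cfsg.Agent.Block.Degrees
import Mathlib.LinearAlgebra.Dimension.Constructions
import Mathlib.LinearAlgebra.FiniteDimensional.Basic

/-!
# Counting blocks by defect classes
-/

set_option linter.style.haveILetI false

namespace Cfsg.Agent.Brauer

open Cfsg MonoidAlgebra
open Cfsg.Agent.Block

universe u

variable {G : Type u} [Group G] [Fintype G] {p : ℕ} {M : Ideal AlgInt} [M.IsPrime] [Fact p.Prime]

/-- If every class on which both the idempotent of a member of `𝔅` and the homomorphism of a
member of `𝔅` are nonzero lies in `S`, then `𝔅` has at most `|S|` members. -/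
theorem card_blocks_le_of_support (𝔅 : Set (Set (IrrCharacter G))) (hB : ∀ B ∈ 𝔅, IsPBlock M B)
    (S : Set (ConjClasses G))
    (hS : ∀ B ∈ 𝔅, ∀ B' ∈ 𝔅, ∀ χ ∈ B', ∀ g : G, ¬ MemLocalIdeal M (blockCoeff B g) →
      ¬ MemLocalIdeal M (centralChar (χ : G → ℂ) g) → ConjClasses.mk g ∈ S) :
    Nat.card 𝔅 ≤ Nat.card S := by
  classical
  haveI : Finite (ConjClasses G) := Finite.of_surjective _ ConjClasses.mk_surjective
  haveI := Fintype.ofFinite (ConjClasses G)
  haveI := Fintype.ofFinite S
  haveI := Fintype.ofFinite 𝔅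
  choose ch hch using fun B : 𝔅 => pBlock_nonempty (hB B.1 B.2)
  let v : 𝔅 → (S → ResF M) := fun B K => (idemF M B.1).coeff K.1.out
  have key : ∀ B B' : 𝔅, ∑ K : S, v B K * redC M (centralChar (ch B' : G → ℂ) K.1.out)
      = if B = B' then 1 else 0 := by
    intro B B'
    have h1 : lam M (ch B' : G → ℂ) (idemF M B.1) = if B = B' then 1 else 0 := by
      split_ifs with h
      · subst h; exact lam_idemF_of_mem (hB B.1 B.2) (hch B)
      · refine lam_idemF_of_notMem (hB B.1 B.2) fun hmem => h (Subtype.ext ?_)
        exact pBlock_eq_of_mem (hB B.1 B.2) (hB B'.1 B'.2) hmem (hch B')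
    rw [← h1, lam, finsum_eq_sum_of_fintype,
      ← Finset.sum_subset (Finset.subset_univ (Finset.univ.filter (· ∈ S))) ?_]
    · have e := Finset.sum_subtype (Finset.univ.filter (· ∈ S)) (p := fun x => x ∈ S)
        (F := inferInstance) (fun x => by simp) (fun c : ConjClasses G => (idemF M B.1).coeff c.out *
        redC M (centralChar (ch B' : G → ℂ) c.out))
      rw [e]
    · intro c _ hc
      by_contra hne
      apply hc
      simp only [Finset.mem_filter, Finset.mem_univ, true_and]
      rw [show c = ConjClasses.mk c.out from (Quotient.out_eq c).symm]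
      refine hS B.1 B.2 B'.1 B'.2 (ch B') (hch B') c.out (fun h => hne ?_) fun h => hne ?_
      · rw [coeff_idemF (hB B.1 B.2), (redC_eq_zero_iff
          (blockCoeff_memLocalRing (hB B.1 B.2) c.out)).2 h, zero_mul]
      · rw [(redC_eq_zero_iff (centralChar_memLocalRing (ch B').2 c.out)).2 h, mul_zero]
  have hli : LinearIndependent (ResF M) v := by
    rw [Fintype.linearIndependent_iff]
    intro a ha B'
    have h := congrArg (fun w : S → ResF M =>
      ∑ K : S, w K * redC M (centralChar (ch B' : G → ℂ) K.1.out)) ha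
    simp only [Finset.sum_apply, Pi.smul_apply, smul_eq_mul, Pi.zero_apply, zero_mul,
      Finset.sum_const_zero, Finset.sum_mul] at h
    rw [Finset.sum_comm] at h
    simpa [mul_assoc, ← Finset.mul_sum, key] using h
  have h := hli.fintype_card_le_finrank
  rwa [Module.finrank_fintype_fun_eq_card, ← Nat.card_eq_fintype_card,
    ← Nat.card_eq_fintype_card] at h

end Cfsg.Agent.Brauer
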