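import Cfsg.Agent.Block.Idempotent
import Cfsg.Agent.Brauer.RegElement
import Cfsg.Agent.Brauer.FrobTrace
import Mathlib.Data.Nat.Totient

/-!
# Külshammer's formula for the idempotent of the principal block
-/

namespace Cfsg.Agent.Brauer

open Cfsg MonoidAlgebra
open Cfsg.Agent.Block
open scoped ComplexConjugate

universe u

variable {G : Type u} [Group G] [Fintype G] {p : ℕ} {M : Ideal AlgInt}

/-- An exponent adapted to `g`: its `p`-th power fixes `g` and kills all `p`-elements. -/
theorem exists_section_exponent (hp : p.Prime) {g : G} (hg : ¬ p ∣ orderOf g) :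
    ∃ n : ℕ, g ^ p ^ n = g ∧ (∀ u : G, u ^ p ^ n = 1 ↔ ∃ k, orderOf u = p ^ k) ∧
      ∀ m, ∀ u : G, u ^ p ^ m = 1 → u ^ p ^ n = 1 := by
  set a := (Nat.card G).factorization p with ha
  set n := (a + 1) * (orderOf g).totient with hn
  have hbig : ∀ m, ∀ u : G, u ^ p ^ m = 1 → u ^ p ^ n = 1 := by
    intro m u hu
    obtain ⟨j, -, hj⟩ := (Nat.dvd_prime_pow hp).mp (orderOf_dvd_of_pow_eq_one hu)
    rw [← orderOf_dvd_iff_pow_eq_one, hj]
    refine pow_dvd_pow p (le_trans ?_ (Nat.le_mul_of_pos_right _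
      (Nat.totient_pos.mpr (orderOf_pos g))))
    have : p ^ j ∣ Nat.card G := hj ▸ orderOf_dvd_natCard u
    exact le_trans ((hp.pow_dvd_iff_le_factorization Nat.card_pos.ne').mp this) (Nat.le_succ a)
  refine ⟨n, ?_, fun u => ⟨fun h => ?_, ?_⟩, hbig⟩
  · have h1 : p ^ n ≡ 1 [MOD orderOf g] := by
      have h := (Nat.ModEq.pow_totient (hp.coprime_iff_not_dvd.mpr hg)).pow (a + 1)
      rwa [← pow_mul, one_pow, mul_comm] at h
    conv_rhs => rw [← pow_one g]
    exact pow_eq_pow_iff_modEq.mpr h1
  · obtain ⟨j, -, hj⟩ := (Nat.dvd_prime_pow hp).mp (orderOf_dvd_of_pow_eq_one h)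
    exact ⟨j, hj⟩
  · rintro ⟨k, hk⟩
    exact hbig k u (by rw [← hk]; exact pow_orderOf_eq_one u)

open scoped Classical in
/-- Külshammer's formula in the residue field. -/
theorem card_pairs_eq (hM : IsPModular p M) [M.IsPrime] {g : G} (hg : ¬ p ∣ orderOf g) :
    (Nat.card {xy : G × G // (∃ k : ℕ, orderOf xy.1 = p ^ k) ∧ ¬ p ∣ orderOf xy.2 ∧
        xy.1 * xy.2 = g} : ResF M)
      = (Nat.card {y : G // ¬ p ∣ orderOf y} : ResF M) *
        redC M (blockCoeff (principalBlock M G) g) := by
  haveI : Fact p.Prime := ⟨hM.1⟩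
  haveI := charP_resF (M := M) hM
  have hB0 : IsPBlock M (principalBlock M G) := ⟨Char.trivialIrr G, rfl⟩
  obtain ⟨n, hgn, hpel, hbig⟩ := exists_section_exponent hM.1 hg
  let T : MonoidAlgebra (ResF M) G → ResF M := fun x =>
    ∑ u, ({u : G | u ^ p ^ n = 1}).indicator (fun u => x.coeff (u * g)) u
  have hTadd : ∀ x y, T (x + y) = T x + T y := fun x y => by
    simp only [T, ← Finset.sum_add_distrib]
    exact Finset.sum_congr rfl fun u _ => by simp [Set.indicator_apply]; split_ifs <;> simp
  have hT0 : T 0 = 0 := by simp [T]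
  have hTsum : ∀ (s : Finset (Set (IrrCharacter G))) (f : Set (IrrCharacter G) → MonoidAlgebra (ResF M) G),
      T (∑ i ∈ s, f i) = ∑ i ∈ s, T (f i) := by
    intro s f
    induction s using Finset.induction_on with
    | empty => simpa using hT0
    | insert a t ha ih => rw [Finset.sum_insert ha, Finset.sum_insert ha, hTadd, ih]
  have hcomm : ∀ x : MonoidAlgebra (ResF M) G, IsCentralElt x → Commute x (single g 1) :=
    fun x hx => Block.isCentralElt_commute hx _
  have hTnil : ∀ x : MonoidAlgebra (ResF M) G, IsCentralElt x → IsNilpotent x → T x = 0 :=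
    fun x hx hnil => sectionTot_eq_zero_of_isNilpotent g x (hcomm x hx) hnil n
      (fun m _ u hu => hbig m u hu)
  let R : MonoidAlgebra (ResF M) G := toF M (regElt M p (fun _ : G => (1 : ℂ)))
  have hRc : IsCentralElt R := (isCentralElt_regElt Char.isCharacter_const_one).mapR _
  let r : ResF M := (Nat.card {y : G // ¬ p ∣ orderOf y} : ResF M)
  have hlam : ∀ ψ : IrrCharacter G, lam M (ψ : G → ℂ) R
      = redC M (regSum p (ψ : G → ℂ) (fun _ => 1) / (ψ : G → ℂ) 1) := fun ψ => by
    rw [lam_toF ψ.2 (isCentralElt_regElt Char.isCharacter_const_one),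
      omega_toC_regElt Char.isCharacter_const_one]
  have hlam0 : lam M ((Char.trivialIrr G : IrrCharacter G) : G → ℂ) R = r := by
    rw [hlam]
    change redC M (regSum p (fun _ : G => (1 : ℂ)) (fun _ => 1) / 1) = r
    rw [regSum_one_one, div_one, redC_natCast]
  -- only the principal block contributes
  have hdecomp : T R = T (idemF M (principalBlock M G) * R) := by
    conv_lhs => rw [← one_mul R, ← sum_idemF_blocks (M := M) (G := G), Finset.sum_mul, hTsum]
    refine Finset.sum_eq_single_of_mem _ (mem_blocks_iff.2 hB0) fun B hB hne => ?_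
    have hB' := mem_blocks_iff.1 hB
    refine hTnil _ ((idemF_isCentralElt B).mul hRc) (isNilpotent_idemF_mul hB' hRc fun ψ hψ => ?_)
    have hψ0 : ψ ∉ principalBlock M G := fun h => hne (pBlock_eq_of_mem hB' hB0 hψ h)
    rw [mem_principalBlock_iff_regSum hM, not_not] at hψ0
    rw [hlam, redC_eq_zero_iff (regSum_div_memLocalRing hM Char.isCharacter_const_one ψ)]
    exact hψ0
  have hprin : T (idemF M (principalBlock M G) * R) = r * (idemF M (principalBlock M G)).coeff g := by
    have hsplit : idemF M (principalBlock M G) * R = r • idemF M (principalBlock M G)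
        + idemF M (principalBlock M G) * (R - r • 1) := by
      rw [mul_sub, mul_smul_comm, mul_one]; abel
    have hc : IsCentralElt (R - r • (1 : MonoidAlgebra (ResF M) G)) :=
      hRc.sub (IsCentralElt.one.smul r)
    rw [hsplit, hTadd, hTnil _ ((idemF_isCentralElt _).mul hc)
      (isNilpotent_idemF_mul hB0 hc fun ψ hψ => by
        rw [lam_sub ψ.2 hRc (IsCentralElt.one.smul r), lam_smul ψ.2, lam_one ψ.2, mul_one,
          ← lam_eq_of_sameBlock (Char.trivialIrr G).2 ψ.2 hψ R, hlam0, sub_self]), add_zero]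
    have he := (coeff_pow_eq_self n g (idemF M (principalBlock M G)) (idemF_mul_self hB0)
      (hcomm _ (idemF_isCentralElt _)) hgn (fun u hu => hbig _ u hu)).2
    rw [← he, Finset.mul_sum]
    refine Finset.sum_congr rfl fun u _ => ?_
    simp [Set.indicator_apply]
  rw [← coeff_idemF hB0, ← hprin, ← hdecomp]
  -- the left side counts the pairs
  let e : {xy : G × G // (∃ k : ℕ, orderOf xy.1 = p ^ k) ∧ ¬ p ∣ orderOf xy.2 ∧ xy.1 * xy.2 = g} ≃
      {u : G // u ^ p ^ n = 1 ∧ ¬ p ∣ orderOf (u * g)} :=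
    { toFun := fun t => ⟨t.1.1⁻¹, by rw [inv_pow, inv_eq_one]; exact (hpel _).mpr t.2.1,
        by
          have h : t.1.1⁻¹ * g = t.1.2 := inv_mul_eq_iff_eq_mul.mpr t.2.2.2.symm
          rw [h]; exact t.2.2.1⟩
      invFun := fun u => ⟨(u.1⁻¹, u.1 * g), by
        refine ⟨(hpel _).mp ?_, u.2.2, by simp⟩
        simp [u.2.1]⟩
      left_inv := fun t => by
        refine Subtype.ext (Prod.ext (by simp) ?_)
        exact inv_mul_eq_iff_eq_mul.mpr t.2.2.2.symm
      right_inv := fun u => Subtype.ext (by simp) }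
  rw [Nat.card_congr e, Nat.card_eq_fintype_card, Fintype.card_subtype, ← Finset.sum_boole]
  refine Finset.sum_congr rfl fun u _ => ?_
  simp only [Set.indicator_apply, Set.mem_ofPred_eq, R]
  rw [coeff_mapR, ← redC_coe, coeff_regElt Char.isCharacter_const_one]
  by_cases h1 : u ^ p ^ n = 1 <;> by_cases h2 : p ∣ orderOf (u * g) <;>
    simp [h1, h2, redC_zero, redC_one]

end Cfsg.Agent.Brauer
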