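import Cfsg.Agent.Brauer.DefectCount
import Cfsg.Agent.Block.FirstMain
import Cfsg.Agent.Transfer.Frobenius
import Cfsg.Agent.Lib.Element

/-!
# Blocks of a group with a normal Sylow subgroup
-/

set_option linter.style.haveILetI false

namespace Cfsg.Agent.Brauer

open Cfsg MonoidAlgebra
open Cfsg.Agent.Block
open scoped ComplexConjugate

universe u

variable {G : Type u} [Group G] [Fintype G] {p : ℕ} {M : Ideal AlgInt} [M.IsPrime]

/-- The centre of the modular group algebra of a `p'`-group is detected by the characters. -/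
theorem eq_zero_of_lam_eq_zero_of_not_dvd_card (hM : IsPModular p M) (hG : ¬ p ∣ Nat.card G)
    {a : MonoidAlgebra (ResF M) G} (ha : IsCentralElt a)
    (h : ∀ θ : IrrCharacter G, lam M (θ : G → ℂ) a = 0) : a = 0 := by
  classical
  obtain ⟨z, hz, rfl⟩ := exists_lift ha
  have hexp : toC M z = ∑ θ : IrrCharacter G,
      omega (θ : G → ℂ) (toC M z) • blockIdem ({θ} : Set (IrrCharacter G)) := by
    refine central_ext (hz.mapR _) (IsCentralElt.sum _ fun θ _ =>
      (blockIdem_isCentralElt _).smul _) fun χ => ?_
    rw [map_sum, Finset.sum_eq_single χ]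
    · rw [map_smul, omega_blockIdem, if_pos (Set.mem_singleton χ), smul_eq_mul, mul_one]
    · intro θ _ hne
      rw [map_smul, omega_blockIdem, if_neg (fun hh => hne (Set.mem_singleton_iff.1 hh).symm),
        smul_zero]
    · simp
  refine groupAlgebra_ext fun g => ?_
  rw [coeff_mapR]
  change red M (z.coeff g) = 0
  rw [red_eq_zero_iff]
  have hg := congrArg (fun b : MonoidAlgebra ℂ G => b.coeff g) hexp
  simp only [coeff_mapR, coeff_sum, Finset.sum_apply', coeff_smul_apply, coeff_blockIdem,
    smul_eq_mul] at hg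
  change ((z.coeff g : localRing M) : ℂ) = _ at hg
  rw [hg]
  refine memLocalIdeal_sum _ _ fun θ _ => memLocalIdeal_mul_right ?_ ?_
  · rw [← redC_eq_zero_iff (omega_toC_memLocalRing θ.2 hz), ← lam_toF θ.2 hz]
    exact h θ
  · rw [blockCoeff, finsum_mem_singleton, ← Char.irr_inv θ.2]
    exact (localRing M).mul_mem (memLocalRing_natCast_inv hM hG)
      ((localRing M).mul_mem (char_memLocalRing θ.2 1) (char_memLocalRing θ.2 _))

open scoped Classical in
/-- Classes inside a `p'`-subgroup give linearly independent class sums modulo the radical. -/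
theorem card_classes_le_card_blocks (hM : IsPModular p M) (K : Subgroup G)
    (hK : ¬ p ∣ Nat.card K) (S : Set (ConjClasses G))
    (hS : ∀ c ∈ S, ∀ g : G, ConjClasses.mk g = c → g ∈ K) :
    Nat.card S ≤ Nat.card {B : Set (IrrCharacter G) // IsPBlock M B} := by
  haveI : Finite (ConjClasses G) := Finite.of_surjective _ ConjClasses.mk_surjective
  haveI := Fintype.ofFinite S
  haveI := Fintype.ofFinite K
  haveI := Fintype.ofFinite {B : Set (IrrCharacter G) // IsPBlock M B}
  choose ch hch using fun B : {B : Set (IrrCharacter G) // IsPBlock M B} => pBlock_nonempty B.2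
  let z : (S → ResF M) → MonoidAlgebra (ResF M) G := fun a =>
    ∑ c : S, a c • classSum (ResF M) c.1.out
  have hzc : ∀ a, IsCentralElt (z a) := fun a =>
    IsCentralElt.sum _ fun c _ => (classSum_isCentralElt _).smul _
  let L : (S → ResF M) →ₗ[ResF M] ({B : Set (IrrCharacter G) // IsPBlock M B} → ResF M) :=
    { toFun := fun a B => lam M (ch B : G → ℂ) (z a)
      map_add' := fun a b => by
        funext B
        rw [Pi.add_apply, ← lam_add (ch B).2 (hzc a) (hzc b)]
        congr 1
        simp [z, add_smul, Finset.sum_add_distrib]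
      map_smul' := fun r a => by
        funext B
        rw [RingHom.id_apply, Pi.smul_apply, smul_eq_mul, ← lam_smul (ch B).2]
        congr 1
        simp [z, Finset.smul_sum, smul_smul] }
  have hinj : Function.Injective L := by
    refine (injective_iff_map_eq_zero L).2 fun a ha => ?_
    have hlam : ∀ χ : IrrCharacter G, lam M (χ : G → ℂ) (z a) = 0 := by
      intro χ
      have h := congrFun ha ⟨blockOf M (χ : G → ℂ), isPBlock_blockOf χ⟩
      change lam M _ (z a) = 0 at h
      rwa [lam_eq_of_sameBlock χ.2 (ch _).2 (hch ⟨blockOf M (χ : G → ℂ), isPBlock_blockOf χ⟩)]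
    have hnil : IsNilpotent (z a) := by
      rw [← one_mul (z a), ← sum_idemF_blocks (M := M) (G := G), Finset.sum_mul]
      refine Commute.isNilpotent_sum (fun B hB => isNilpotent_idemF_mul (mem_blocks_iff.1 hB)
        (hzc a) fun χ _ => hlam χ) fun B B' _ _ => ?_
      exact isCentralElt_commute ((idemF_isCentralElt B).mul (hzc a)) _
    have hout : ∀ c : S, c.1.out ∈ K := fun c => hS c.1 c.2 _ (Quotient.out_eq _)
    have hsupp : ∀ g ∉ K, (z a).coeff g = 0 := by
      intro g hg
      simp only [z, coeff_sum, Finset.sum_apply', coeff_smul_apply, coeff_classSum, smul_eq_mul]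
      refine Finset.sum_eq_zero fun c _ => ?_
      rw [if_neg, mul_zero]
      intro hc
      refine hg (hS c.1 c.2 g ?_)
      rw [← ConjClasses.mk_eq_mk_iff_isConj.2 hc]
      exact Quotient.out_eq _
    have hincl : incl K (restr K (z a)) = z a := incl_restr_of_supported hsupp
    have hnilK : IsNilpotent (restr K (z a)) := by
      obtain ⟨n, hn⟩ := hnil
      refine ⟨n, incl_injective K ?_⟩
      rw [map_pow, hincl, hn, map_zero]
    have hzero : restr K (z a) = 0 := eq_zero_of_lam_eq_zero_of_not_dvd_card hM hK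
      ((hzc a).restr K) fun θ => lam_eq_zero_of_isNilpotent θ.2 ((hzc a).restr K) hnilK
    funext c
    have h := congrArg (fun b : MonoidAlgebra (ResF M) K => b.coeff ⟨c.1.out, hout c⟩) hzero
    simp only [coeff_restr, z, coeff_sum, Finset.sum_apply', coeff_smul_apply, coeff_classSum,
      smul_eq_mul] at h
    rw [Finset.sum_eq_single c] at h
    · rw [if_pos (IsConj.refl _), mul_one] at h
      exact h
    · intro d _ hd
      rw [if_neg, mul_zero]
      intro hcd
      apply hd
      refine Subtype.ext ?_
      have h1 := ConjClasses.mk_eq_mk_iff_isConj.2 hcd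
      rwa [show ConjClasses.mk d.1.out = d.1 from Quotient.out_eq _,
        show ConjClasses.mk c.1.out = c.1 from Quotient.out_eq _] at h1
    · simp
  have h := LinearMap.finrank_le_finrank_of_injective hinj
  rwa [Module.finrank_fintype_fun_eq_card, Module.finrank_fintype_fun_eq_card,
    ← Nat.card_eq_fintype_card, ← Nat.card_eq_fintype_card] at h

variable [Fact p.Prime]

omit [M.IsPrime] in
/-- The `p`-regular elements centralizing a normal Sylow subgroup lie in a `p'`-subgroup. -/
theorem exists_regular_centralizer_subgroup (P : Sylow p G) [(P : Subgroup G).Normal] :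
    ∃ K : Subgroup G, ¬ p ∣ Nat.card K ∧
      ∀ g : G, g ∈ Subgroup.centralizer ((P : Subgroup G) : Set G) → ¬ p ∣ orderOf g → g ∈ K := by
  have hp : p.Prime := Fact.out
  set C := Subgroup.centralizer ((P : Subgroup G) : Set G) with hC
  obtain ⟨Q⟩ : Nonempty (Sylow p C) := inferInstance
  have hQP : (Q : Subgroup C).map C.subtype ≤ (P : Subgroup G) := by
    obtain ⟨R, hR⟩ := (Q.isPGroup'.map C.subtype).exists_le_sylow
    obtain ⟨g, hg⟩ := MulAction.exists_smul_eq G P R
    intro x hx
    have h2 : x ∈ ((R : Sylow p G) : Subgroup G) := hR hx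
    rw [← hg, Sylow.coe_subgroup_smul] at h2
    obtain ⟨w, hw, rfl⟩ := h2
    exact (inferInstance : (P : Subgroup G).Normal).conj_mem w hw g
  obtain ⟨Q', N, hNn, hNc⟩ := Transfer.hasNormalPComplement_of_normalizer_le_centralizer Q
    (fun n _ => by
      rw [Subgroup.mem_centralizer_iff]
      intro x hx
      exact Subtype.ext (n.2 (x : G) (hQP ⟨x, hx, rfl⟩)))
  haveI := hNn
  have hN : ¬ p ∣ Nat.card N := by
    intro h
    apply Q'.not_dvd_index
    rwa [hNc.index_eq_card]
  refine ⟨N.map C.subtype, by rwa [Subgroup.card_map_of_injective C.subtype_injective],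
    fun g hg hreg => ⟨⟨g, hg⟩, Element.mem_of_coprime_index ?_, rfl⟩⟩
  obtain ⟨i, hi⟩ := IsPGroup.iff_card.mp Q'.isPGroup'
  rw [hNc.symm.index_eq_card, hi]
  refine Nat.Coprime.pow_right _ (Nat.coprime_comm.mp (hp.coprime_iff_not_dvd.mpr ?_))
  rwa [← Subgroup.orderOf_coe]

/-- The blocks of a group with a normal Sylow subgroup `P` are as many as the classes of
`p`-regular elements centralizing `P`. -/
theorem card_blocks_of_normal_sylow (hM : IsPModular p M) (P : Sylow p G)
    [(P : Subgroup G).Normal] :
    Nat.card {B : Set (IrrCharacter G) // IsPBlock M B} = Nat.card {C : ConjClasses G //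
      ∀ g : G, ConjClasses.mk g = C → ¬ p ∣ orderOf g ∧
        g ∈ Subgroup.centralizer ((P : Subgroup G) : Set G)} := by
  obtain ⟨K, hK, hKmem⟩ := exists_regular_centralizer_subgroup P
  refine le_antisymm ?_ (card_classes_le_card_blocks hM K hK
    {C : ConjClasses G | ∀ g : G, ConjClasses.mk g = C → ¬ p ∣ orderOf g ∧
      g ∈ Subgroup.centralizer ((P : Subgroup G) : Set G)}
    fun c hc g hg => hKmem g (hc g hg).2 (hc g hg).1)
  refine card_blocks_le_of_support {B : Set (IrrCharacter G) | IsPBlock M B} (fun B hB => hB)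
    {C : ConjClasses G | ∀ g : G, ConjClasses.mk g = C → ¬ p ∣ orderOf g ∧
      g ∈ Subgroup.centralizer ((P : Subgroup G) : Set G)}
    fun B hB B' _ χ _ g hu _ g' hg' => ?_
  obtain ⟨c, hc⟩ := isConj_iff.1 (ConjClasses.mk_eq_mk_iff_isConj.1 hg').symm
  have hu' : ¬ MemLocalIdeal M (blockCoeff B g') := by rwa [← hc, blockCoeff_conj_invariant]
  refine ⟨fun h => hu' ?_, ?_⟩
  · rw [blockCoeff_eq_zero_of_integral hM B (blockCoeff_memLocalRing hB) h]
    exact memLocalIdeal_zero
  · by_contra hn
    apply (coeff_idemF_ne_zero_iff hB g').2 hu'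
    rw [← trunc_idemF_of_normal hM hB P.isPGroup', coeff_trunc_of_notMem _ hn]

end Cfsg.Agent.Brauer
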